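/-
S0518 (main theorem of the solvable 2-local analysis): package statements.
Every package is a `def PkgX : Prop`; prove `theorem pkgX : PkgX.{u}` (or with other packages
as explicit hypotheses).  Model group: `Mdl = Perm (Fin 4) × Multiplicative (ZMod 2)`.
-/
import Mathlib
import Cfsg.Prelude.Def_CaseTheorems
import Cfsg.Prelude.Def_JComponents
import Cfsg.Prelude.Def_Involutions
import Cfsg.Prelude.Def_Solvable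
import Cfsg.Prelude.Def_Transfer

set_option autoImplicit false
open Cfsg

namespace Cfsg.Agent.Lib.Helper12.KS

universe u

/-- The model group `S₄ × C₂`. -/
abbrev Mdl : Type := Equiv.Perm (Fin 4) × Multiplicative (ZMod 2)

/-- The normal four-group of `S₄`: the identity and the fixed-point-free involutions. -/
def inV (s : Equiv.Perm (Fin 4)) : Prop := s = 1 ∨ (s * s = 1 ∧ ∀ i : Fin 4, s i ≠ i)

/-- The standard dihedral Sylow 2-subgroup of `S₄` (symmetries of the square `0 1 2 3`);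
its elements are `inV`, the 4-cycles `(0 1 2 3)`, `(0 3 2 1)` and the transpositions `(0 2)`, `(1 3)`. -/
def inD (s : Equiv.Perm (Fin 4)) : Prop := ∀ i : Fin 4, s (i + 2) = s i + 2

instance : DecidablePred inV := fun s => by unfold inV; infer_instance
instance : DecidablePred inD := fun s => by unfold inD; infer_instance

/-- The subgroup generated by the elements of odd order. -/
def oddGen (G : Type u) [Group G] : Subgroup G := Subgroup.closure {g : G | Odd (orderOf g)}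

/-- The hypothesis on centralizers of central involutions of Sylow 2-subgroups (as in S0518). -/
def HZ (G : Type u) [Group G] : Prop :=
  ∀ S : Sylow 2 G,
    Subgroup.centralizer {z : G | z ∈ (S : Subgroup G) ∧ z ^ 2 = 1 ∧ ∀ s ∈ (S : Subgroup G), s * z = z * s} ≤
      Subgroup.normalizer ((S : Subgroup G) : Set G)

section
variable {G : Type u} [Group G]

/-- Case A of the conclusion of S2954. -/
def CaseA (P₁ P₂ T : Subgroup G) : Prop :=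
  P₁ ≠ P₂ ∧ IsMaximalTwoLocal P₁ ∧ IsMaximalTwoLocal P₂ ∧ IsSylowTwoIn T P₁ ∧ IsSylowTwoIn T P₂ ∧
    Nonempty (↥P₁ ≃* Equiv.Perm (Fin 4)) ∧ Nonempty (↥P₂ ≃* Equiv.Perm (Fin 4))

/-- Case B of the conclusion of S2954. -/
def CaseB (P₁ P₂ T : Subgroup G) : Prop :=
  P₁ ≠ P₂ ∧ IsMaximalTwoLocal P₁ ∧ IsMaximalTwoLocal P₂ ∧ IsSylowTwoIn T P₁ ∧ IsSylowTwoIn T P₂ ∧
    Nonempty (↥P₁ ≃* Mdl) ∧ Nonempty (↥P₂ ≃* Mdl)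

/-- The second alternative of S0518, for `H = oddGen G`. -/
def Goal (G : Type u) [Group G] : Prop :=
  ∃ M₁ M₂ : Subgroup ↥(oddGen G), M₁ ≠ M₂ ∧ IsMaximalTwoLocal M₁ ∧ IsMaximalTwoLocal M₂ ∧
    Nonempty (↥M₁ ≃* Equiv.Perm (Fin 4)) ∧ Nonempty (↥M₂ ≃* Equiv.Perm (Fin 4)) ∧ Nat.card ↥(M₁ ⊓ M₂) = 8

/-- `K ≤ H` is a maximal 2-local subgroup of the group `H`, stated inside `G`. -/
def MaxLocIn (H K : Subgroup G) : Prop :=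
  K ≤ H ∧
    (∃ R : Subgroup G, R ≤ H ∧ IsPGroup 2 ↥R ∧ R ≠ ⊥ ∧ K = Subgroup.normalizer (R : Set G) ⊓ H) ∧
    ∀ R : Subgroup G, R ≤ H → IsPGroup 2 ↥R → R ≠ ⊥ → K ≤ Subgroup.normalizer (R : Set G) →
      Subgroup.normalizer (R : Set G) ⊓ H = K

/-- One side: `P ≅ S₄ × C₂` by an isomorphism `e` under which `T` is the standard Sylow 2-subgroup
`D₈ × C₂`, `Q` is `V₄ × C₂`, `W` is `V₄ × 1` and `c` is the central involution `(1, σ)`. -/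
structure Side (P T Q W : Subgroup G) (c : G) : Prop where
  T_le : T ≤ P
  Q_le : Q ≤ P
  W_le : W ≤ P
  c_mem : c ∈ P
  ex : ∃ e : ↥P ≃* Mdl, (∀ x : ↥P, (x : G) ∈ T ↔ inD (e x).1) ∧ (∀ x : ↥P, (x : G) ∈ Q ↔ inV (e x).1) ∧
      (∀ x : ↥P, (x : G) ∈ W ↔ inV (e x).1 ∧ (e x).2 = 1) ∧
      (∀ x : ↥P, (x : G) = c ↔ e x = (1, Multiplicative.ofAdd 1))

/-- One-sided facts, group 1 (basic). -/
structure SideBasic (P T Q W : Subgroup G) (c : G) : Prop where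
  W_le_Q : W ≤ Q
  Q_le_T : Q ≤ T
  T_le_P : T ≤ P
  card_W : Nat.card ↥W = 4
  card_Q : Nat.card ↥Q = 8
  card_T : Nat.card ↥T = 16
  card_P : Nat.card ↥P = 48
  syl : IsSylowTwoIn T P
  W_normal : ∀ p ∈ P, ∀ v ∈ W, p * v * p⁻¹ ∈ W
  Q_normal : ∀ p ∈ P, ∀ q ∈ Q, p * q * p⁻¹ ∈ Q
  c_mem_Q : c ∈ Q
  c_not_W : c ∉ W
  c_ne : c ≠ 1
  c_sq : c * c = 1
  c_central : ∀ p ∈ P, p * c = c * p
  Q_sq : ∀ q ∈ Q, q * q = 1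
  Q_cover : ∀ q ∈ Q, q ∈ W ∨ q * c ∈ W

/-- One-sided facts, group 2 (elements of odd order). -/
structure SideOdd (P W : Subgroup G) : Prop where
  W_le : W ≤ oddGen G
  three : ∃ g ∈ P, orderOf g = 3

/-- One-sided facts, group 3 (uniqueness). -/
structure SideUniq (P T W : Subgroup G) (c : G) : Prop where
  central : ∀ z ∈ P, (∀ p ∈ P, p * z = z * p) → z = 1 ∨ z = c
  four : ∀ N : Subgroup G, N ≤ P → Nat.card ↥N = 4 → (∀ p ∈ P, ∀ n ∈ N, p * n * p⁻¹ ∈ N) → N = W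
  nT : ∀ p ∈ P, (∀ t ∈ T, p * t * p⁻¹ ∈ T) → p ∈ T

/-- One-sided facts, group 4: every involution other than `c` lies with `c` in an elementary
abelian subgroup of order 8. -/
def SideE8 (P : Subgroup G) (c : G) : Prop :=
  ∀ u ∈ P, u * u = 1 → u ≠ 1 → u ≠ c →
    ∃ E : Subgroup G, E ≤ P ∧ Nat.card ↥E = 8 ∧ (∀ a ∈ E, a * a = 1) ∧ c ∈ E ∧ u ∈ E

/-- One-sided facts, group 5: squares and centre of `T`. -/
def SideSq (T W : Subgroup G) (c : G) : Prop :=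
  ∃ w, w ∈ W ∧ w ≠ 1 ∧ (∀ t ∈ T, t * w = w * t) ∧ (∀ t ∈ T, t * t = 1 ∨ t * t = w) ∧
    (∃ t ∈ T, t * t = w) ∧
    (∀ z ∈ T, (∀ t ∈ T, t * z = z * t) → z = 1 ∨ z = w ∨ z = c ∨ z = c * w)

/-- One-sided facts, group 6: the second elementary abelian subgroup of order 8 of `T`. -/
def SideE8T (T Q : Subgroup G) : Prop :=
  ∃ E : Subgroup G, E ≤ T ∧ Nat.card ↥E = 8 ∧ (∀ a ∈ E, a * a = 1) ∧ E ≠ Q ∧
    (∀ t ∈ T, t * t = 1 → t ∈ Q ∨ t ∈ E) ∧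
    (∀ F : Subgroup G, F ≤ T → Nat.card ↥F = 8 → (∀ a ∈ F, a * a = 1) → F = Q ∨ F = E)

/-- One-sided facts, group 7: a non-central element of `Q` has centralizer `Q` in `T`. -/
def SideCent (T Q : Subgroup G) : Prop :=
  ∀ q ∈ Q, (∃ t ∈ T, t * q ≠ q * t) → ∀ t ∈ T, t * q = q * t → t ∈ Q

/-- The two-sided configuration of case B. -/
structure BCfg (P₁ P₂ T Q₁ Q₂ W₁ W₂ : Subgroup G) (c₁ c₂ : G) : Prop where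
  ne : P₁ ≠ P₂
  max₁ : IsMaximalTwoLocal P₁
  max₂ : IsMaximalTwoLocal P₂
  side₁ : Side P₁ T Q₁ W₁ c₁
  side₂ : Side P₂ T Q₂ W₂ c₂

theorem BCfg.symm {P₁ P₂ T Q₁ Q₂ W₁ W₂ : Subgroup G} {c₁ c₂ : G}
    (h : BCfg P₁ P₂ T Q₁ Q₂ W₁ W₂ c₁ c₂) : BCfg P₂ P₁ T Q₂ Q₁ W₂ W₁ c₂ c₁ :=
  ⟨h.ne.symm, h.max₂, h.max₁, h.side₂, h.side₁⟩

/-- Facts about the central element `w` (the nontrivial square in `T`). -/
structure WFacts (T Q₁ Q₂ W₁ W₂ : Subgroup G) (c₁ c₂ w : G) : Prop where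
  w_ne : w ≠ 1
  w_sq : w * w = 1
  w_mem₁ : w ∈ W₁
  w_mem₂ : w ∈ W₂
  c₂_eq : c₂ = c₁ * w
  w_cent : ∀ t ∈ T, t * w = w * t
  sq : ∀ t ∈ T, t * t = 1 ∨ t * t = w
  sq_ex : ∃ t ∈ T, t * t = w
  inter_W : ∀ x, x ∈ W₁ → x ∈ W₂ → x = 1 ∨ x = w
  inter_Q : ∀ x, x ∈ Q₁ → x ∈ Q₂ → x = 1 ∨ x = w ∨ x = c₁ ∨ x = c₂
  center : ∀ z ∈ T, (∀ t ∈ T, t * z = z * t) → z = 1 ∨ z = w ∨ z = c₁ ∨ z = c₂

/-- Involutions and elementary abelian subgroups of order 8 of `T`. -/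
structure InvFacts (T Q₁ Q₂ : Subgroup G) : Prop where
  invol : ∀ t ∈ T, t * t = 1 → t ∈ Q₁ ∨ t ∈ Q₂
  e8 : ∀ E : Subgroup G, E ≤ T → Nat.card ↥E = 8 → (∀ a ∈ E, a * a = 1) → E = Q₁ ∨ E = Q₂
  sup : Q₁ ⊔ Q₂ = T

/-- The dihedral subgroup `T₀ = W₁ ⊔ W₂` of index 2 in `T`. -/
structure T0Facts (T Q₁ Q₂ W₁ W₂ : Subgroup G) (c₁ c₂ : G) : Prop where
  le : W₁ ⊔ W₂ ≤ T
  card : Nat.card ↥(W₁ ⊔ W₂) = 8
  c₁_not : c₁ ∉ W₁ ⊔ W₂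
  c₂_not : c₂ ∉ W₁ ⊔ W₂
  cover : ∀ t ∈ T, t ∈ W₁ ⊔ W₂ ∨ t * c₁ ∈ W₁ ⊔ W₂
  four : ∀ F : Subgroup G, F ≤ W₁ ⊔ W₂ → Nat.card ↥F = 4 → (∀ a ∈ F, a * a = 1) → F = W₁ ∨ F = W₂
  inter_Q₁ : ∀ x ∈ W₁ ⊔ W₂, x ∈ Q₁ → x ∈ W₁
  inter_Q₂ : ∀ x ∈ W₁ ⊔ W₂, x ∈ Q₂ → x ∈ W₂

/-- Conjugation by `x` carries side 1 to side 2. -/
structure MapsTo (P₁ P₂ Q₁ Q₂ W₁ W₂ : Subgroup G) (c₁ c₂ x : G) : Prop where
  Q : ∀ q ∈ Q₁, x * q * x⁻¹ ∈ Q₂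
  P : ∀ p ∈ P₁, x * p * x⁻¹ ∈ P₂
  W : ∀ v ∈ W₁, x * v * x⁻¹ ∈ W₂
  c : x * c₁ * x⁻¹ = c₂

end

/-! ## Top level -/

/-- [J] the normalizer of the Thompson subgroup of a Sylow 2-subgroup is a 2-local. -/
def PkgJ : Prop :=
  ∀ {G : Type u} [Group G] [Finite G], Even (Nat.card G) → ∀ S : Sylow 2 G,
    IsTwoLocal (Subgroup.normalizer (thompsonSubgroupOf 2 (S : Subgroup G) : Set G))

/-- [MaxEx] a nonempty straddling family has a lexicographically maximal member. -/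
def PkgMaxEx : Prop :=
  ∀ {G : Type u} [Group G] [Finite G] (M : Subgroup G),
    (straddlingTwoSubgroups M).Nonempty → (maxStraddlingTwoSubgroups M).Nonempty

/-- [Top] reduction of S0518 to the two cases of S2954 (uses S2947 and S2954). -/
def PkgTop : Prop :=
  ∀ {G : Type u} [Group G] [Finite G], IsCharacteristicTwoType G → pCore 2 G = ⊥ →
    (∀ N : Subgroup G, IsTwoLocal N → Group.IsSolvable ↥N) → HZ G →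
    (∃ K : Subgroup G, IsStronglyEmbedded K) ∨ (∃ P₁ P₂ T : Subgroup G, CaseA P₁ P₂ T) ∨
      ∃ P₁ P₂ T : Subgroup G, CaseB P₁ P₂ T

/-- [Fin] from the inside-`G` formulation to subgroups of `↥H`. -/
def PkgFin : Prop :=
  ∀ {G : Type u} [Group G] [Finite G] (H K₁ K₂ : Subgroup G), K₁ ≠ K₂ → MaxLocIn H K₁ → MaxLocIn H K₂ →
    Nonempty (↥K₁ ≃* Equiv.Perm (Fin 4)) → Nonempty (↥K₂ ≃* Equiv.Perm (Fin 4)) →
    Nat.card ↥(K₁ ⊓ K₂) = 8 →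
    ∃ M₁ M₂ : Subgroup ↥H, M₁ ≠ M₂ ∧ IsMaximalTwoLocal M₁ ∧ IsMaximalTwoLocal M₂ ∧
      Nonempty (↥M₁ ≃* Equiv.Perm (Fin 4)) ∧ Nonempty (↥M₂ ≃* Equiv.Perm (Fin 4)) ∧ Nat.card ↥(M₁ ⊓ M₂) = 8

/-! ## Case A -/

/-- [A2] a maximal 2-local of `G` inside `H` is a maximal 2-local of `H`. -/
def PkgA2 : Prop :=
  ∀ {G : Type u} [Group G] [Finite G] (H P : Subgroup G), IsMaximalTwoLocal P → P ≤ H → MaxLocIn H P

/-- [ALe] in case A, `P₁` is generated by its elements of odd order together with `Q₂`. -/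
def PkgALe : Prop :=
  ∀ {G : Type u} [Group G] [Finite G] (P₁ P₂ T : Subgroup G), CaseA P₁ P₂ T → P₁ ≤ oddGen G

/-- [ACard] in case A, `P₁ ⊓ P₂` has order 8. -/
def PkgACard : Prop :=
  ∀ {G : Type u} [Group G] [Finite G] (P₁ P₂ T : Subgroup G), CaseA P₁ P₂ T → Nat.card ↥(P₁ ⊓ P₂) = 8

/-! ## Case B, one-sided -/

/-- [B0] normalized isomorphism. -/
def PkgB0 : Prop :=
  ∀ {G : Type u} [Group G] [Finite G] (P T : Subgroup G), IsSylowTwoIn T P → Nonempty (↥P ≃* Mdl) →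
    ∃ (Q W : Subgroup G) (c : G), Side P T Q W c

def PkgO1 : Prop :=
  ∀ {G : Type u} [Group G] [Finite G] {P T Q W : Subgroup G} {c : G}, Side P T Q W c → SideBasic P T Q W c

def PkgO2 : Prop :=
  ∀ {G : Type u} [Group G] [Finite G] {P T Q W : Subgroup G} {c : G}, Side P T Q W c → SideOdd P W

def PkgO3 : Prop :=
  ∀ {G : Type u} [Group G] [Finite G] {P T Q W : Subgroup G} {c : G}, Side P T Q W c → SideUniq P T W c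

def PkgO4 : Prop :=
  ∀ {G : Type u} [Group G] [Finite G] {P T Q W : Subgroup G} {c : G}, Side P T Q W c → SideE8 P c

def PkgO5 : Prop :=
  ∀ {G : Type u} [Group G] [Finite G] {P T Q W : Subgroup G} {c : G}, Side P T Q W c → SideSq T W c

def PkgO6 : Prop :=
  ∀ {G : Type u} [Group G] [Finite G] {P T Q W : Subgroup G} {c : G}, Side P T Q W c → SideE8T T Q

def PkgO7 : Prop :=
  ∀ {G : Type u} [Group G] [Finite G] {P T Q W : Subgroup G} {c : G}, Side P T Q W c → SideCent T Q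

/-- [Iso] a subgroup of order 24 avoiding `c` is `S₄`. -/
def PkgIso : Prop :=
  ∀ {G : Type u} [Group G] [Finite G] {P T Q W : Subgroup G} {c : G}, Side P T Q W c →
    ∀ K : Subgroup G, K ≤ P → c ∉ K → Nat.card ↥K = 24 → Nonempty (↥K ≃* Equiv.Perm (Fin 4))

/-- [Nor2] normal 2-subgroups of a subgroup of order 24 avoiding `c`. -/
def PkgNor2 : Prop :=
  ∀ {G : Type u} [Group G] [Finite G] {P T Q W : Subgroup G} {c : G}, Side P T Q W c →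
    ∀ K : Subgroup G, K ≤ P → c ∉ K → Nat.card ↥K = 24 → W ≤ K →
    ∀ N : Subgroup G, N ≤ K → IsPGroup 2 ↥N → (∀ k ∈ K, ∀ n ∈ N, k * n * k⁻¹ ∈ N) → N = ⊥ ∨ N = W

/-- [Nrm] normalizers and centralizers given by maximality. -/
def PkgNrm : Prop :=
  ∀ {G : Type u} [Group G] [Finite G] {P T Q W : Subgroup G} {c : G}, IsMaximalTwoLocal P →
    Side P T Q W c →
    Subgroup.normalizer (Q : Set G) = P ∧ Subgroup.normalizer (W : Set G) = P ∧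
      Subgroup.centralizer ({c} : Set G) = P

/-- [SylIn] Sylow's theorem inside a subgroup. -/
def PkgSylIn : Prop :=
  ∀ {G : Type u} [Group G] [Finite G] (P T : Subgroup G), IsSylowTwoIn T P →
    ∀ R : Subgroup G, R ≤ P → IsPGroup 2 ↥R → ∃ p ∈ P, ∀ r ∈ R, p * r * p⁻¹ ∈ T

/-- [Fus] extremal conjugation. -/
def PkgFus : Prop :=
  ∀ {G : Type u} [Group G] [Finite G] (P T : Subgroup G) (c : G), IsSylowTwoIn T P →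
    Subgroup.centralizer ({c} : Set G) = P →
    ∀ (g : G) (R : Subgroup G), IsPGroup 2 ↥R → (∀ r ∈ R, r * (g * c * g⁻¹) = (g * c * g⁻¹) * r) →
      ∃ h : G, h * (g * c * g⁻¹) * h⁻¹ = c ∧ ∀ r ∈ R, h * r * h⁻¹ ∈ T

/-- [Odd] elements of odd order lie in every normal subgroup of index 2. -/
def PkgOdd : Prop :=
  ∀ {G : Type u} [Group G] [Finite G] (M : Subgroup G), M.Normal → M.index = 2 → oddGen G ≤ M

/-! ## Case B, two-sided structure -/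

def PkgT : Prop :=
  ∀ {G : Type u} [Group G] [Finite G] {P₁ P₂ T Q₁ Q₂ W₁ W₂ : Subgroup G} {c₁ c₂ : G},
    BCfg P₁ P₂ T Q₁ Q₂ W₁ W₂ c₁ c₂ → P₁ ⊓ P₂ = T ∧ Q₁ ≠ Q₂ ∧ W₁ ≠ W₂ ∧ c₁ ≠ c₂

def PkgW : Prop :=
  ∀ {G : Type u} [Group G] [Finite G] {P₁ P₂ T Q₁ Q₂ W₁ W₂ : Subgroup G} {c₁ c₂ : G},
    BCfg P₁ P₂ T Q₁ Q₂ W₁ W₂ c₁ c₂ → ∃ w : G, WFacts T Q₁ Q₂ W₁ W₂ c₁ c₂ w

def PkgInv : Prop :=
  ∀ {G : Type u} [Group G] [Finite G] {P₁ P₂ T Q₁ Q₂ W₁ W₂ : Subgroup G} {c₁ c₂ : G},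
    BCfg P₁ P₂ T Q₁ Q₂ W₁ W₂ c₁ c₂ → InvFacts T Q₁ Q₂

def PkgT0 : Prop :=
  ∀ {G : Type u} [Group G] [Finite G] {P₁ P₂ T Q₁ Q₂ W₁ W₂ : Subgroup G} {c₁ c₂ : G},
    BCfg P₁ P₂ T Q₁ Q₂ W₁ W₂ c₁ c₂ → T0Facts T Q₁ Q₂ W₁ W₂ c₁ c₂

/-- [Map] an element carrying `Q₁` into `Q₂` carries side 1 to side 2. -/
def PkgMap : Prop :=
  ∀ {G : Type u} [Group G] [Finite G] {P₁ P₂ T Q₁ Q₂ W₁ W₂ : Subgroup G} {c₁ c₂ : G},
    BCfg P₁ P₂ T Q₁ Q₂ W₁ W₂ c₁ c₂ → ∀ x : G, (∀ q ∈ Q₁, x * q * x⁻¹ ∈ Q₂) →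
      MapsTo P₁ P₂ Q₁ Q₂ W₁ W₂ c₁ c₂ x

/-! ## Case B, fusion of `c₁` -/

/-- [FusT] no conjugate of `c₁` lies in `T₀`. -/
def PkgFusT : Prop :=
  ∀ {G : Type u} [Group G] [Finite G] {P₁ P₂ T Q₁ Q₂ W₁ W₂ : Subgroup G} {c₁ c₂ : G},
    BCfg P₁ P₂ T Q₁ Q₂ W₁ W₂ c₁ c₂ → ∀ g : G, g * c₁ * g⁻¹ ∈ T → g * c₁ * g⁻¹ ∉ W₁ ⊔ W₂

/-- [SP] a 2-subgroup containing `T` meets `P₁` in `T`. -/
def PkgSP : Prop :=
  ∀ {G : Type u} [Group G] [Finite G] {P₁ P₂ T Q₁ Q₂ W₁ W₂ : Subgroup G} {c₁ c₂ : G},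
    BCfg P₁ P₂ T Q₁ Q₂ W₁ W₂ c₁ c₂ → ∀ S : Subgroup G, IsPGroup 2 ↥S → T ≤ S → S ⊓ P₁ = T

/-- [SylA] an element of a 2-group `S ≥ T` that normalizes `T` and is not in `T` swaps `Q₁`, `Q₂`. -/
def PkgSylA : Prop :=
  ∀ {G : Type u} [Group G] [Finite G] {P₁ P₂ T Q₁ Q₂ W₁ W₂ : Subgroup G} {c₁ c₂ : G},
    BCfg P₁ P₂ T Q₁ Q₂ W₁ W₂ c₁ c₂ → ∀ S : Subgroup G, IsPGroup 2 ↥S → T ≤ S →
      ∀ x ∈ S, x ∉ T → (∀ t ∈ T, x * t * x⁻¹ ∈ T) →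
        (∀ q ∈ Q₁, x * q * x⁻¹ ∈ Q₂) ∧ (∀ q ∈ Q₂, x * q * x⁻¹ ∈ Q₁)

/-- [SylB] elementary abelian subgroups of order 8 of `N_S(T)` lie in `T`. -/
def PkgSylB : Prop :=
  ∀ {G : Type u} [Group G] [Finite G] {P₁ P₂ T Q₁ Q₂ W₁ W₂ : Subgroup G} {c₁ c₂ : G},
    BCfg P₁ P₂ T Q₁ Q₂ W₁ W₂ c₁ c₂ → ∀ S : Subgroup G, IsPGroup 2 ↥S → T ≤ S →
      ∀ E : Subgroup G, E ≤ S → (∀ a ∈ E, ∀ t ∈ T, a * t * a⁻¹ ∈ T) → Nat.card ↥E = 8 →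
        (∀ a ∈ E, a * a = 1) → E ≤ T

/-- [SylC] `T` is normal in every 2-subgroup containing it. -/
def PkgSylC : Prop :=
  ∀ {G : Type u} [Group G] [Finite G] {P₁ P₂ T Q₁ Q₂ W₁ W₂ : Subgroup G} {c₁ c₂ : G},
    BCfg P₁ P₂ T Q₁ Q₂ W₁ W₂ c₁ c₂ → ∀ S : Subgroup G, IsPGroup 2 ↥S → T ≤ S →
      ∀ s ∈ S, ∀ t ∈ T, s * t * s⁻¹ ∈ T

/-- [SylD] `T` has index at most 2 in every 2-subgroup containing it. -/
def PkgSylD : Prop :=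
  ∀ {G : Type u} [Group G] [Finite G] {P₁ P₂ T Q₁ Q₂ W₁ W₂ : Subgroup G} {c₁ c₂ : G},
    BCfg P₁ P₂ T Q₁ Q₂ W₁ W₂ c₁ c₂ → ∀ S : Subgroup G, IsPGroup 2 ↥S → T ≤ S →
      ∀ x ∈ S, x ∉ T → ∀ s ∈ S, s ∈ T ∨ s * x⁻¹ ∈ T

/-- [Xsq] squares of elements outside `T` lie in `T₀`. -/
def PkgXsq : Prop :=
  ∀ {G : Type u} [Group G] [Finite G] {P₁ P₂ T Q₁ Q₂ W₁ W₂ : Subgroup G} {c₁ c₂ : G},
    BCfg P₁ P₂ T Q₁ Q₂ W₁ W₂ c₁ c₂ → ∀ S : Subgroup G, IsPGroup 2 ↥S → T ≤ S →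
      ∀ x ∈ S, x ∉ T → x * x ∈ W₁ ⊔ W₂

/-- [U] a subgroup of index 2 meeting `T` in `T₀`. -/
def PkgU : Prop :=
  ∀ {G : Type u} [Group G] [Finite G] {P₁ P₂ T Q₁ Q₂ W₁ W₂ : Subgroup G} {c₁ c₂ : G},
    BCfg P₁ P₂ T Q₁ Q₂ W₁ W₂ c₁ c₂ → ∀ S : Subgroup G, IsPGroup 2 ↥S → T ≤ S →
      ∃ U : Subgroup G, U ≤ S ∧ U.relIndex S = 2 ∧ U ⊓ T = W₁ ⊔ W₂

/-- [Cw] if `T` is not a Sylow 2-subgroup then the centralizer of `w` is the Sylow 2-subgroup. -/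
def PkgCw : Prop :=
  ∀ {G : Type u} [Group G] [Finite G] {P₁ P₂ T Q₁ Q₂ W₁ W₂ : Subgroup G} {c₁ c₂ : G},
    BCfg P₁ P₂ T Q₁ Q₂ W₁ W₂ c₁ c₂ → HZ G → ∀ S : Sylow 2 G, T ≤ (S : Subgroup G) →
      T ≠ (S : Subgroup G) → ∀ w : G, WFacts T Q₁ Q₂ W₁ W₂ c₁ c₂ w →
        ∀ g : G, g * w = w * g → g ∈ (S : Subgroup G)

/-- [NoFusS] conjugates of `c₁` in a Sylow 2-subgroup containing `T` lie in `T`. -/
def PkgNoFusS : Prop :=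
  ∀ {G : Type u} [Group G] [Finite G] {P₁ P₂ T Q₁ Q₂ W₁ W₂ : Subgroup G} {c₁ c₂ : G},
    BCfg P₁ P₂ T Q₁ Q₂ W₁ W₂ c₁ c₂ → HZ G → ∀ S : Sylow 2 G, T ≤ (S : Subgroup G) →
      ∀ g : G, g * c₁ * g⁻¹ ∈ (S : Subgroup G) → g * c₁ * g⁻¹ ∈ T

/-- [Thom] `c₁` is not a product of elements of odd order (Thompson transfer, S0111). -/
def PkgThom : Prop :=
  ∀ {G : Type u} [Group G] [Finite G] {P₁ P₂ T Q₁ Q₂ W₁ W₂ : Subgroup G} {c₁ c₂ : G},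
    BCfg P₁ P₂ T Q₁ Q₂ W₁ W₂ c₁ c₂ → HZ G → c₁ ∉ oddGen G

/-! ## Case B, the subgroups `P_i ⊓ H` -/

/-- [Card] orders. -/
def PkgCard : Prop :=
  ∀ {G : Type u} [Group G] [Finite G] {P₁ P₂ T Q₁ Q₂ W₁ W₂ : Subgroup G} {c₁ c₂ : G},
    BCfg P₁ P₂ T Q₁ Q₂ W₁ W₂ c₁ c₂ → c₁ ∉ oddGen G →
      Nat.card ↥(P₁ ⊓ oddGen G) = 24 ∧ T ⊓ oddGen G = W₁ ⊔ W₂

/-- [MaxB3] a 2-subgroup of `H` normalized by `P₁ ⊓ H` lies in `P₁ ⊓ H`. -/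
def PkgMaxB3 : Prop :=
  ∀ {G : Type u} [Group G] [Finite G] {P₁ P₂ T Q₁ Q₂ W₁ W₂ : Subgroup G} {c₁ c₂ : G},
    BCfg P₁ P₂ T Q₁ Q₂ W₁ W₂ c₁ c₂ → c₁ ∉ oddGen G → T ⊓ oddGen G = W₁ ⊔ W₂ →
      Nat.card ↥(P₁ ⊓ oddGen G) = 24 →
      ∀ R : Subgroup G, R ≤ oddGen G → IsPGroup 2 ↥R →
        P₁ ⊓ oddGen G ≤ Subgroup.normalizer (R : Set G) → R ≤ P₁ ⊓ oddGen G

/-- [MaxB] `P₁ ⊓ H` is a maximal 2-local of `H`. -/
def PkgMaxB : Prop :=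
  ∀ {G : Type u} [Group G] [Finite G] {P₁ P₂ T Q₁ Q₂ W₁ W₂ : Subgroup G} {c₁ c₂ : G},
    BCfg P₁ P₂ T Q₁ Q₂ W₁ W₂ c₁ c₂ → c₁ ∉ oddGen G → T ⊓ oddGen G = W₁ ⊔ W₂ →
      Nat.card ↥(P₁ ⊓ oddGen G) = 24 → MaxLocIn (oddGen G) (P₁ ⊓ oddGen G)

/-- The whole case B. -/
def PkgB : Prop :=
  ∀ {G : Type u} [Group G] [Finite G] (P₁ P₂ T : Subgroup G), CaseB P₁ P₂ T → HZ G → Goal G

/-- The whole case A. -/
def PkgA : Prop :=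
  ∀ {G : Type u} [Group G] [Finite G] (P₁ P₂ T : Subgroup G), CaseA P₁ P₂ T → Goal G

end Cfsg.Agent.Lib.Helper12.KS
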