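/-
S0518: assembly of the packages of `KS/Defs.lean`.
-/
import Mathlib
import Cfsg.Agent.Lib.Helper12.KS.Defs
import Cfsg.Agent.S0111

set_option autoImplicit false
open Cfsg

namespace Cfsg.Agent.Lib.Helper12.KS

universe u

/-- Thompson transfer: the central involution `c₁` is not a product of elements of odd order. -/
theorem pkgThom_of (hO1 : PkgO1.{u}) (hT0 : PkgT0.{u}) (hFusT : PkgFusT.{u}) (hNoFus : PkgNoFusS.{u})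
    (hU : PkgU.{u}) (hOdd : PkgOdd.{u}) : PkgThom.{u} := by
  intro G _ _ P₁ P₂ T Q₁ Q₂ W₁ W₂ c₁ c₂ hB hZ hc
  have b1 := hO1 hB.side₁
  have t0 := hT0 hB
  have hTp : IsPGroup 2 ↥T := b1.syl.2.1
  obtain ⟨S, hTS⟩ := hTp.exists_le_sylow
  obtain ⟨U, hUS, hUi, hUT⟩ := hU hB (S : Subgroup G) S.isPGroup' hTS
  have hc1T : c₁ ∈ T := b1.Q_le_T b1.c_mem_Q
  have hc1U : c₁ ∉ U := by
    intro h
    have h2 : c₁ ∈ U ⊓ T := ⟨h, hc1T⟩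
    rw [hUT] at h2
    exact t0.c₁_not h2
  have hord : orderOf c₁ = 2 :=
    orderOf_eq_prime (by rw [pow_two]; exact b1.c_sq) b1.c_ne
  rcases Cfsg.Agent.S0111.result S U hUS hUi c₁ hord (hTS hc1T) hc1U with ⟨M, hMn, hMi, hcM⟩ | ⟨g, hg⟩
  · exact hcM (hOdd M hMn hMi hc)
  · have h1 : g * c₁ * g⁻¹ ∈ T := hNoFus hB hZ S hTS g (hUS hg)
    have h2 : g * c₁ * g⁻¹ ∈ U ⊓ T := ⟨hg, h1⟩
    rw [hUT] at h2
    exact hFusT hB g h1 h2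

/-- `P₁ ⊓ H` is a maximal 2-local subgroup of `H`. -/
theorem pkgMaxB_of (hO1 : PkgO1.{u}) (hNrm : PkgNrm.{u}) (hNor2 : PkgNor2.{u})
    (hMaxB3 : PkgMaxB3.{u}) : PkgMaxB.{u} := by
  intro G _ _ P₁ P₂ T Q₁ Q₂ W₁ W₂ c₁ c₂ hB hc hTH hcard
  have b1 := hO1 hB.side₁
  obtain ⟨-, hNW, -⟩ := hNrm hB.max₁ hB.side₁
  have hT0H : W₁ ⊔ W₂ ≤ oddGen G := by rw [← hTH]; exact inf_le_right
  have hW1H : W₁ ≤ oddGen G := le_sup_left.trans hT0H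
  have hW1K : W₁ ≤ P₁ ⊓ oddGen G := le_inf hB.side₁.W_le hW1H
  have hWp : IsPGroup 2 ↥W₁ := b1.syl.2.1.to_le (b1.W_le_Q.trans b1.Q_le_T)
  have hWne : W₁ ≠ ⊥ := by
    intro h
    have h4 := b1.card_W
    rw [h] at h4
    simp at h4
  have hcK : c₁ ∉ P₁ ⊓ oddGen G := fun h => hc h.2
  refine ⟨inf_le_right, ⟨W₁, hW1H, hWp, hWne, by rw [hNW]⟩, ?_⟩
  intro R hRH hRp hRne hKR
  have hRK : R ≤ P₁ ⊓ oddGen G := hMaxB3 hB hc hTH hcard R hRH hRp hKR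
  have hRW : R = ⊥ ∨ R = W₁ :=
    hNor2 hB.side₁ (P₁ ⊓ oddGen G) inf_le_left hcK hcard hW1K R hRK hRp (by
      intro k hk n hn
      have h1 := hKR hk
      rw [Subgroup.mem_normalizer_iff] at h1
      exact (h1 n).mp hn)
  rcases hRW with h | h
  · exact absurd h hRne
  · rw [h, hNW]

/-- Case A. -/
theorem pkgA_of (hFin : PkgFin.{u}) (hA2 : PkgA2.{u}) (hALe : PkgALe.{u}) (hACard : PkgACard.{u}) :
    PkgA.{u} := by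
  intro G _ _ P₁ P₂ T hA
  obtain ⟨hne, hm1, hm2, hs1, hs2, he1, he2⟩ := hA
  have hA1 : CaseA P₁ P₂ T := ⟨hne, hm1, hm2, hs1, hs2, he1, he2⟩
  have hA2' : CaseA P₂ P₁ T := ⟨hne.symm, hm2, hm1, hs2, hs1, he2, he1⟩
  have h1 : P₁ ≤ oddGen G := hALe P₁ P₂ T hA1
  have h2 : P₂ ≤ oddGen G := hALe P₂ P₁ T hA2'
  exact hFin (oddGen G) P₁ P₂ hne (hA2 _ _ hm1 h1) (hA2 _ _ hm2 h2) he1 he2 (hACard P₁ P₂ T hA1)

/-- Case B. -/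
theorem pkgB_of (hFin : PkgFin.{u}) (hB0 : PkgB0.{u}) (hT : PkgT.{u}) (hT0 : PkgT0.{u})
    (hThom : PkgThom.{u}) (hCard : PkgCard.{u}) (hIso : PkgIso.{u}) (hMaxB : PkgMaxB.{u}) :
    PkgB.{u} := by
  intro G _ _ P₁ P₂ T hB hZ
  obtain ⟨hne, hm1, hm2, hs1, hs2, he1, he2⟩ := hB
  obtain ⟨Q₁, W₁, c₁, sd1⟩ := hB0 P₁ T hs1 he1
  obtain ⟨Q₂, W₂, c₂, sd2⟩ := hB0 P₂ T hs2 he2
  have cfg : BCfg P₁ P₂ T Q₁ Q₂ W₁ W₂ c₁ c₂ := ⟨hne, hm1, hm2, sd1, sd2⟩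
  have cfg' : BCfg P₂ P₁ T Q₂ Q₁ W₂ W₁ c₂ c₁ := cfg.symm
  have hc1 : c₁ ∉ oddGen G := hThom cfg hZ
  have hc2 : c₂ ∉ oddGen G := hThom cfg' hZ
  obtain ⟨hk1, hTH⟩ := hCard cfg hc1
  obtain ⟨hk2, hTH2⟩ := hCard cfg' hc2
  have t0 := hT0 cfg
  obtain ⟨hPT, -, -, -⟩ := hT cfg
  have i1 := hIso sd1 (P₁ ⊓ oddGen G) inf_le_left (fun h => hc1 h.2) hk1
  have i2 := hIso sd2 (P₂ ⊓ oddGen G) inf_le_left (fun h => hc2 h.2) hk2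
  have m1 := hMaxB cfg hc1 hTH hk1
  have m2 := hMaxB cfg' hc2 hTH2 hk2
  have hinter : (P₁ ⊓ oddGen G) ⊓ (P₂ ⊓ oddGen G) = W₁ ⊔ W₂ := by
    rw [← hTH, ← hPT]
    ext x
    simp only [Subgroup.mem_inf]
    tauto
  have hcard8 : Nat.card ↥((P₁ ⊓ oddGen G) ⊓ (P₂ ⊓ oddGen G)) = 8 := by
    rw [hinter]; exact t0.card
  have hKne : P₁ ⊓ oddGen G ≠ P₂ ⊓ oddGen G := by
    intro h
    rw [← h, inf_idem] at hcard8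
    omega
  exact hFin (oddGen G) _ _ hKne m1 m2 i1 i2 hcard8

/-- S0518 from the three top-level packages. -/
theorem s0518_of (hTop : PkgTop.{u}) (hA : PkgA.{u}) (hB : PkgB.{u})
    {G : Type u} [Group G] [Finite G]
    (hL : Cfsg.IsCharacteristicTwoType G) (hO : Cfsg.pCore 2 G = ⊥)
    (hN : ∀ N : Subgroup G, Cfsg.IsTwoLocal N → Group.IsSolvable N)
    (hZ : ∀ S : Sylow 2 G,
      Subgroup.centralizer {z : G | z ∈ (S : Subgroup G) ∧ z ^ 2 = 1 ∧ ∀ s ∈ (S : Subgroup G), s * z = z * s} ≤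
        Subgroup.normalizer ((S : Subgroup G) : Set G))
    (H : Subgroup G) (hH : H = Subgroup.closure {g : G | Odd (orderOf g)}) :
    (∃ K : Subgroup G, Cfsg.IsStronglyEmbedded K) ∨
      ∃ M₁ M₂ : Subgroup H, M₁ ≠ M₂ ∧ Cfsg.IsMaximalTwoLocal M₁ ∧ Cfsg.IsMaximalTwoLocal M₂ ∧
        Nonempty (M₁ ≃* Equiv.Perm (Fin 4)) ∧ Nonempty (M₂ ≃* Equiv.Perm (Fin 4)) ∧ Nat.card ↥(M₁ ⊓ M₂) = 8 := by
  subst hH
  rcases hTop hL hO hN hZ with h | ⟨P₁, P₂, T, h⟩ | ⟨P₁, P₂, T, h⟩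
  · exact Or.inl h
  · exact Or.inr (hA P₁ P₂ T h)
  · exact Or.inr (hB P₁ P₂ T h hZ)

end Cfsg.Agent.Lib.Helper12.KS
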