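/-
S0518 package [O1]: basic one-sided facts.
-/
import Mathlib
import Cfsg.Agent.Lib.Helper12.KS.Defs

set_option autoImplicit false
open Cfsg

namespace Cfsg.Agent.Lib.Helper12.KS

universe u

/-- The central involution of the model. -/
abbrev zM : Mdl := (1, Multiplicative.ofAdd 1)

/-- Cardinality of a subgroup cut out in the model by a decidable predicate. -/
theorem card_of_model {G : Type u} [Group G] {P X : Subgroup G} (hX : X ≤ P) (e : ↥P ≃* Mdl)
    (p : Mdl → Prop) [DecidablePred p] (h : ∀ x : ↥P, (x : G) ∈ X ↔ p (e x)) :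
    Nat.card ↥X = Fintype.card {m : Mdl // p m} := by
  rw [← Nat.card_eq_fintype_card]
  refine Nat.card_congr
    { toFun := fun y => ⟨e ⟨y.1, hX y.2⟩, (h _).mp y.2⟩
      invFun := fun m => ⟨(e.symm m.1 : G), (h (e.symm m.1)).mpr (by simpa using m.2)⟩
      left_inv := ?_
      right_inv := ?_ }
  · intro y
    apply Subtype.ext
    simp
  · intro m
    apply Subtype.ext
    simp

theorem mdl_card : Fintype.card Mdl = 48 := by
  rw [Fintype.card_prod, Fintype.card_perm]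
  rfl

theorem mdl_cardW : Fintype.card {m : Mdl // inV m.1 ∧ m.2 = 1} = 4 := by
  rw [Fintype.card_subtype]; decide +kernel

theorem mdl_cardQ : Fintype.card {m : Mdl // inV m.1} = 8 := by
  rw [Fintype.card_subtype]; decide +kernel

theorem mdl_cardT : Fintype.card {m : Mdl // inD m.1} = 16 := by
  rw [Fintype.card_subtype]; decide +kernel

theorem mdl_V_le_D : ∀ m : Mdl, inV m.1 → inD m.1 := by decide +kernel

theorem mdl_W_normal : ∀ a m : Mdl, inV m.1 ∧ m.2 = 1 → inV (a * m * a⁻¹).1 ∧ (a * m * a⁻¹).2 = 1 := by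
  decide +kernel

theorem mdl_Q_normal : ∀ a m : Mdl, inV m.1 → inV (a * m * a⁻¹).1 := by
  decide +kernel

theorem mdl_z_central : ∀ a : Mdl, a * zM = zM * a := by decide +kernel

theorem mdl_Q_sq : ∀ m : Mdl, inV m.1 → m * m = 1 := by decide +kernel

theorem mdl_Q_cover : ∀ m : Mdl, inV m.1 → (inV m.1 ∧ m.2 = 1) ∨ (inV (m * zM).1 ∧ (m * zM).2 = 1) := by
  decide +kernel

/-- [O1] -/
theorem pkgO1 : PkgO1.{u} := by
  intro G _ _ P T Q W c sd
  obtain ⟨e, hT, hQ, hW, hc⟩ := sd.ex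
  have hcz : e ⟨c, sd.c_mem⟩ = zM := (hc ⟨c, sd.c_mem⟩).mp rfl
  have hWQ : W ≤ Q := fun x hx => (hQ ⟨x, sd.W_le hx⟩).mpr ((hW ⟨x, sd.W_le hx⟩).mp hx).1
  have hQT : Q ≤ T := fun x hx => (hT ⟨x, sd.Q_le hx⟩).mpr (mdl_V_le_D _ ((hQ ⟨x, sd.Q_le hx⟩).mp hx))
  have hcardW : Nat.card ↥W = 4 := by
    rw [card_of_model sd.W_le e (fun m => inV m.1 ∧ m.2 = 1) hW]; exact mdl_cardW
  have hcardQ : Nat.card ↥Q = 8 := by
    rw [card_of_model sd.Q_le e (fun m => inV m.1) hQ]; exact mdl_cardQ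
  have hcardT : Nat.card ↥T = 16 := by
    rw [card_of_model sd.T_le e (fun m => inD m.1) hT]; exact mdl_cardT
  have hcardP : Nat.card ↥P = 48 := by
    rw [Nat.card_congr e.toEquiv, Nat.card_eq_fintype_card]; exact mdl_card
  have hsyl : IsSylowTwoIn T P := by
    refine ⟨sd.T_le, IsPGroup.of_card (n := 4) (by rw [hcardT]; norm_num), ?_⟩
    have h1 := Subgroup.relIndex_mul_relIndex (⊥ : Subgroup G) T P bot_le sd.T_le
    rw [Subgroup.relIndex_bot_left, Subgroup.relIndex_bot_left, hcardT, hcardP] at h1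
    have h3 : T.relIndex P = 3 := by omega
    rw [h3]; decide
  refine
    { W_le_Q := hWQ
      Q_le_T := hQT
      T_le_P := sd.T_le
      card_W := hcardW
      card_Q := hcardQ
      card_T := hcardT
      card_P := hcardP
      syl := hsyl
      W_normal := ?_
      Q_normal := ?_
      c_mem_Q := ?_
      c_not_W := ?_
      c_ne := ?_
      c_sq := ?_
      c_central := ?_
      Q_sq := ?_
      Q_cover := ?_ }
  · intro p hp v hv
    have h1 := mdl_W_normal (e ⟨p, hp⟩) (e ⟨v, sd.W_le hv⟩) ((hW ⟨v, sd.W_le hv⟩).mp hv)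
    have h2 := (hW (⟨p, hp⟩ * ⟨v, sd.W_le hv⟩ * ⟨p, hp⟩⁻¹)).mpr
      (by rw [map_mul, map_mul, map_inv]; exact h1)
    exact h2
  · intro p hp v hv
    have h1 := mdl_Q_normal (e ⟨p, hp⟩) (e ⟨v, sd.Q_le hv⟩) ((hQ ⟨v, sd.Q_le hv⟩).mp hv)
    have h2 := (hQ (⟨p, hp⟩ * ⟨v, sd.Q_le hv⟩ * ⟨p, hp⟩⁻¹)).mpr
      (by rw [map_mul, map_mul, map_inv]; exact h1)
    exact h2
  · have h2 := (hQ ⟨c, sd.c_mem⟩).mpr (by rw [hcz]; decide +kernel)
    simpa using h2
  · intro h
    have h2 := (hW ⟨c, sd.c_mem⟩).mp h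
    rw [hcz] at h2
    exact absurd h2.2 (by decide)
  · intro h
    have h1 : (⟨c, sd.c_mem⟩ : ↥P) = 1 := Subtype.ext h
    rw [h1, map_one] at hcz
    exact absurd hcz (by decide)
  · have h1 : e (⟨c, sd.c_mem⟩ * ⟨c, sd.c_mem⟩) = e 1 := by
      rw [map_mul, hcz, map_one]; decide +kernel
    have h2 := e.injective h1
    exact congrArg Subtype.val h2
  · intro p hp
    have h1 : e (⟨p, hp⟩ * ⟨c, sd.c_mem⟩) = e (⟨c, sd.c_mem⟩ * ⟨p, hp⟩) := by
      rw [map_mul, map_mul, hcz]; exact mdl_z_central _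
    exact congrArg Subtype.val (e.injective h1)
  · intro q hq
    have h1 : e (⟨q, sd.Q_le hq⟩ * ⟨q, sd.Q_le hq⟩) = e 1 := by
      rw [map_mul, map_one]; exact mdl_Q_sq _ ((hQ ⟨q, sd.Q_le hq⟩).mp hq)
    exact congrArg Subtype.val (e.injective h1)
  · intro q hq
    rcases mdl_Q_cover _ ((hQ ⟨q, sd.Q_le hq⟩).mp hq) with h | h
    · left
      have h2 := (hW ⟨q, sd.Q_le hq⟩).mpr h
      simpa using h2
    · right
      have h2 := (hW (⟨q, sd.Q_le hq⟩ * ⟨c, sd.c_mem⟩)).mpr (by rw [map_mul, hcz]; exact h)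
      simpa using h2

end Cfsg.Agent.Lib.Helper12.KS
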