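/-
S0518 package [B0]: a normalized isomorphism `P ≃* S₄ × C₂` carrying `T` to the standard Sylow
2-subgroup.
-/
import Mathlib
import Cfsg.Agent.Lib.Helper12.KS.Defs
import Cfsg.Agent.Lib.Helper12.KS.O1
import Cfsg.Agent.Lib.Helper79.KS.SylIn

set_option autoImplicit false
open Cfsg

namespace Cfsg.Agent.Lib.Helper12.KS

universe u

/-- The standard Sylow 2-subgroup of the model. -/
def Dsub : Subgroup Mdl where
  carrier := {m | inD m.1}
  mul_mem' := by
    intro a b ha hb
    exact (by decide +kernel : ∀ a b : Mdl, inD a.1 → inD b.1 → inD (a * b).1) a b ha hb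
  one_mem' := by
    show inD (1 : Mdl).1
    decide +kernel
  inv_mem' := by
    intro a ha
    exact (by decide +kernel : ∀ a : Mdl, inD a.1 → inD (a⁻¹).1) a ha

/-- `V₄ × C₂` in the model. -/
def Qsub : Subgroup Mdl where
  carrier := {m | inV m.1}
  mul_mem' := by
    intro a b ha hb
    exact (by decide +kernel : ∀ a b : Mdl, inV a.1 → inV b.1 → inV (a * b).1) a b ha hb
  one_mem' := by
    show inV (1 : Mdl).1
    decide +kernel
  inv_mem' := by
    intro a ha
    exact (by decide +kernel : ∀ a : Mdl, inV a.1 → inV (a⁻¹).1) a ha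

/-- `V₄ × 1` in the model. -/
def Wsub : Subgroup Mdl where
  carrier := {m | inV m.1 ∧ m.2 = 1}
  mul_mem' := by
    intro a b ha hb
    exact (by decide +kernel : ∀ a b : Mdl, (inV a.1 ∧ a.2 = 1) → (inV b.1 ∧ b.2 = 1) →
      (inV (a * b).1 ∧ (a * b).2 = 1)) a b ha hb
  one_mem' := by
    show inV (1 : Mdl).1 ∧ (1 : Mdl).2 = 1
    decide +kernel
  inv_mem' := by
    intro a ha
    exact (by decide +kernel : ∀ a : Mdl, (inV a.1 ∧ a.2 = 1) → (inV (a⁻¹).1 ∧ (a⁻¹).2 = 1)) a ha

theorem mem_Dsub {m : Mdl} : m ∈ Dsub ↔ inD m.1 := Iff.rfl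
theorem mem_Qsub {m : Mdl} : m ∈ Qsub ↔ inV m.1 := Iff.rfl
theorem mem_Wsub {m : Mdl} : m ∈ Wsub ↔ inV m.1 ∧ m.2 = 1 := Iff.rfl

theorem card_Dsub : Nat.card ↥Dsub = 16 := by
  have h : Nat.card ↥Dsub = Fintype.card {m : Mdl // inD m.1} := by
    rw [← Nat.card_eq_fintype_card]; rfl
  rw [h]; exact mdl_cardT

theorem sylow_Dsub : IsSylowTwoIn Dsub (⊤ : Subgroup Mdl) := by
  refine ⟨le_top, IsPGroup.of_card (n := 4) (by rw [card_Dsub]; norm_num), ?_⟩
  have h1 := Subgroup.card_mul_index Dsub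
  rw [card_Dsub, Nat.card_eq_fintype_card, mdl_card] at h1
  rw [Subgroup.relIndex_top_right]
  have h3 : Dsub.index = 3 := by omega
  rw [h3]; decide

/-- [B0] -/
theorem pkgB0 : PkgB0.{u} := by
  intro G _ _ P T hT ⟨e₀⟩
  obtain ⟨hTP, hT2, hodd⟩ := hT
  -- orders
  have hcardP : Nat.card ↥P = 48 := by
    rw [Nat.card_congr e₀.toEquiv, Nat.card_eq_fintype_card]; exact mdl_card
  have hcardT : Nat.card ↥T = 16 := by
    have h1 := Subgroup.relIndex_mul_relIndex (⊥ : Subgroup G) T P bot_le hTP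
    rw [Subgroup.relIndex_bot_left, Subgroup.relIndex_bot_left, hcardP] at h1
    obtain ⟨n, hn⟩ := IsPGroup.iff_card.mp hT2
    rw [hn] at h1 ⊢
    have hn6 : n < 6 := by
      by_contra hcon
      have h64 : 2 ^ 6 ≤ 2 ^ n := Nat.pow_le_pow_right (by norm_num) (by omega)
      have hpos : 0 < T.relIndex P := Nat.pos_of_ne_zero (by intro h0; rw [h0] at h1; omega)
      nlinarith
    obtain ⟨k, hk⟩ := hodd
    interval_cases n <;> omega
  -- the image of `T` in the model
  let T2 : Subgroup Mdl := (T.subgroupOf P).map e₀.toMonoidHom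
  have hT2mem : ∀ x : ↥P, e₀ x ∈ T2 ↔ (x : G) ∈ T := by
    intro x
    constructor
    · rintro ⟨y, hy, hyx⟩
      have : y = x := e₀.injective hyx
      rw [← this]; exact hy
    · intro hx
      exact ⟨x, hx, rfl⟩
  have hcardT2 : Nat.card ↥T2 = 16 := by
    have h1 : Nat.card ↥T2 = Nat.card ↥(T.subgroupOf P) :=
      Subgroup.card_map_of_injective e₀.injective
    rw [h1, Nat.card_congr (Subgroup.subgroupOfEquivOfLe hTP).toEquiv, hcardT]
  have hT2p : IsPGroup 2 ↥T2 := IsPGroup.of_card (n := 4) (by rw [hcardT2]; norm_num)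
  obtain ⟨m, -, hm⟩ := Cfsg.Agent.Lib.Helper79.KS.pkgSylIn.{0} (⊤ : Subgroup Mdl) Dsub sylow_Dsub T2 le_top hT2p
  -- conjugation by `m` is a bijection from `T2` onto `Dsub`
  have hconv : ∀ x : Mdl, m * x * m⁻¹ ∈ Dsub → x ∈ T2 := by
    classical
    let f : ↥T2 → ↥Dsub := fun r => ⟨m * r.1 * m⁻¹, hm r.1 r.2⟩
    have hf : Function.Injective f := by
      intro a b hab
      have h1 : m * a.1 * m⁻¹ = m * b.1 * m⁻¹ := congrArg Subtype.val hab
      apply Subtype.ext
      have h2 := congrArg (fun z => m⁻¹ * z * m) h1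
      simpa [mul_assoc] using h2
    have hbij : Function.Bijective f := by
      rw [Fintype.bijective_iff_injective_and_card]
      refine ⟨hf, ?_⟩
      rw [← Nat.card_eq_fintype_card, ← Nat.card_eq_fintype_card, hcardT2, card_Dsub]
    intro x hx
    obtain ⟨r, hr⟩ := hbij.2 ⟨m * x * m⁻¹, hx⟩
    have h1 : m * r.1 * m⁻¹ = m * x * m⁻¹ := congrArg Subtype.val hr
    have h2 := congrArg (fun z => m⁻¹ * z * m) h1
    have h3 : r.1 = x := by simpa [mul_assoc] using h2
    rw [← h3]; exact r.2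
  -- the normalized isomorphism
  let e : ↥P ≃* Mdl := e₀.trans (MulAut.conj m)
  have he : ∀ x : ↥P, e x = m * e₀ x * m⁻¹ := fun x => rfl
  have hTe : ∀ x : ↥P, (x : G) ∈ T ↔ inD (e x).1 := by
    intro x
    rw [he, ← hT2mem x]
    constructor
    · intro hx; exact hm _ hx
    · intro hx; exact hconv _ hx
  refine ⟨(Qsub.comap e.toMonoidHom).map P.subtype, (Wsub.comap e.toMonoidHom).map P.subtype,
    ((e.symm zM : ↥P) : G), ?_⟩
  refine
    { T_le := hTP
      Q_le := Subgroup.map_subtype_le _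
      W_le := Subgroup.map_subtype_le _
      c_mem := (e.symm zM).2
      ex := ⟨e, hTe, ?_, ?_, ?_⟩ }
  · intro x
    constructor
    · rintro ⟨y, hy, hyx⟩
      have : y = x := Subtype.ext hyx
      rw [← this]; exact hy
    · intro hx
      exact ⟨x, hx, rfl⟩
  · intro x
    constructor
    · rintro ⟨y, hy, hyx⟩
      have : y = x := Subtype.ext hyx
      rw [← this]; exact hy
    · intro hx
      exact ⟨x, hx, rfl⟩
  · intro x
    constructor
    · intro hx
      have : x = e.symm zM := Subtype.ext hx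
      rw [this]; simp
    · intro hx
      have h1 : x = e.symm zM := by
        rw [MulEquiv.eq_symm_apply]; exact hx
      rw [h1]

end Cfsg.Agent.Lib.Helper12.KS
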