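/-
S0518 package [O2]: elements of odd order on one side.
-/
import Mathlib
import Cfsg.Agent.Lib.Helper12.KS.Defs

set_option autoImplicit false
open Cfsg

namespace Cfsg.Agent.Lib.Helper12.KS

universe u

theorem mdl_W_cubes : ∀ m : Mdl, inV m.1 ∧ m.2 = 1 → ∃ a b : Mdl, a ^ 3 = 1 ∧ b ^ 3 = 1 ∧ m = a * b := by
  decide +kernel

/-- An element of order 3 of the model. -/
def t3 : Mdl := (Equiv.swap 0 1 * Equiv.swap 1 2, 1)

theorem t3_cube : t3 ^ 3 = 1 := by decide +kernel
theorem t3_ne : t3 ≠ 1 := by decide +kernel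

theorem odd_of_cube {G : Type u} [Group G] {g : G} (h : g ^ 3 = 1) : Odd (orderOf g) := by
  have h1 : orderOf g ∣ 3 := orderOf_dvd_of_pow_eq_one h
  rcases (Nat.dvd_prime Nat.prime_three).mp h1 with h2 | h2
  · rw [h2]; decide
  · rw [h2]; decide

/-- [O2] -/
theorem pkgO2 : PkgO2.{u} := by
  intro G _ _ P T Q W c sd
  obtain ⟨e, hT, hQ, hW, hc⟩ := sd.ex
  have hcube : ∀ a : Mdl, a ^ 3 = 1 → ((e.symm a : ↥P) : G) ^ 3 = 1 := by
    intro a ha
    have h1 : (e.symm a) ^ 3 = 1 := by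
      rw [← map_pow, ha, map_one]
    have h2 := congrArg Subtype.val h1
    simpa using h2
  constructor
  · intro v hv
    obtain ⟨a, b, ha, hb, hab⟩ := mdl_W_cubes _ ((hW ⟨v, sd.W_le hv⟩).mp hv)
    have h1 : (⟨v, sd.W_le hv⟩ : ↥P) = e.symm a * e.symm b := by
      apply e.injective
      rw [map_mul, MulEquiv.apply_symm_apply, MulEquiv.apply_symm_apply]
      exact hab
    have h2 : v = ((e.symm a : ↥P) : G) * ((e.symm b : ↥P) : G) := congrArg Subtype.val h1
    rw [h2]
    exact Subgroup.mul_mem _ (Subgroup.subset_closure (odd_of_cube (hcube a ha)))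
      (Subgroup.subset_closure (odd_of_cube (hcube b hb)))
  · refine ⟨((e.symm t3 : ↥P) : G), (e.symm t3).2, ?_⟩
    refine orderOf_eq_prime (hcube t3 t3_cube) ?_
    intro h
    have h1 : e.symm t3 = 1 := Subtype.ext h
    have h2 : t3 = 1 := by
      have := congrArg e h1
      rwa [MulEquiv.apply_symm_apply, map_one] at this
    exact t3_ne h2

end Cfsg.Agent.Lib.Helper12.KS
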