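/-
S0518 package [O4]: every involution other than `c` lies with `c` in an elementary abelian
subgroup of order 8.
-/
import Mathlib
import Cfsg.Agent.Lib.Helper12.KS.Defs
import Cfsg.Agent.Lib.Helper12.KS.O1

set_option autoImplicit false
open Cfsg

namespace Cfsg.Agent.Lib.Helper12.KS

universe u

/-- The involutions centralizing `s` (inside the four-group when `s` lies in it). -/
def pE (s x : Equiv.Perm (Fin 4)) : Prop := x * s = s * x ∧ x * x = 1 ∧ (inV s → inV x)

instance (s : Equiv.Perm (Fin 4)) : DecidablePred (pE s) := fun x => by unfold pE; infer_instance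

theorem pE_mul : ∀ s x y : Equiv.Perm (Fin 4), pE s x → pE s y → pE s (x * y) := by decide +kernel
theorem pE_inv : ∀ s x : Equiv.Perm (Fin 4), pE s x → pE s x⁻¹ := by decide +kernel
theorem pE_one : ∀ s : Equiv.Perm (Fin 4), pE s 1 := by decide +kernel
theorem pE_self : ∀ s : Equiv.Perm (Fin 4), s * s = 1 → pE s s := by decide +kernel
theorem pE_card : ∀ s : Equiv.Perm (Fin 4), s * s = 1 → s ≠ 1 →
    (Finset.univ.filter (fun m : Mdl => pE s m.1)).card = 8 := by decide +kernel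
theorem mdl_invol : ∀ m : Mdl, m * m = 1 → m ≠ 1 → m ≠ zM → m.1 * m.1 = 1 ∧ m.1 ≠ 1 := by
  decide +kernel
theorem mdl_sq_of_fst : ∀ x : Mdl, x.1 * x.1 = 1 → x * x = 1 := by decide +kernel

/-- The subgroup of the model cut out by `pE s` on the first coordinate. -/
def Esub (s : Equiv.Perm (Fin 4)) : Subgroup Mdl where
  carrier := {x | pE s x.1}
  mul_mem' := by
    intro a b ha hb
    exact pE_mul s a.1 b.1 ha hb
  one_mem' := pE_one s
  inv_mem' := by
    intro a ha
    exact pE_inv s a.1 ha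

/-- [O4] -/
theorem pkgO4 : PkgO4.{u} := by
  intro G _ _ P T Q W c sd
  obtain ⟨e, hT, hQ, hW, hc⟩ := sd.ex
  have hcz : e ⟨c, sd.c_mem⟩ = zM := (hc ⟨c, sd.c_mem⟩).mp rfl
  intro u hu huu hu1 huc
  -- the image of `u`
  have hm : e ⟨u, hu⟩ * e ⟨u, hu⟩ = 1 := by
    rw [← map_mul]
    have : (⟨u, hu⟩ : ↥P) * ⟨u, hu⟩ = 1 := Subtype.ext huu
    rw [this, map_one]
  have hm1 : e ⟨u, hu⟩ ≠ 1 := by
    intro h
    have h2 : (⟨u, hu⟩ : ↥P) = 1 := e.injective (by rw [h, map_one])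
    exact hu1 (congrArg Subtype.val h2)
  have hmz : e ⟨u, hu⟩ ≠ zM := by
    intro h
    exact huc ((hc ⟨u, hu⟩).mpr h)
  obtain ⟨hs, hs1⟩ := mdl_invol _ hm hm1 hmz
  set s := (e ⟨u, hu⟩).1 with hsdef
  let E : Subgroup G := ((Esub s).comap e.toMonoidHom).map P.subtype
  have hE : ∀ x : ↥P, (x : G) ∈ E ↔ pE s (e x).1 := by
    intro x
    constructor
    · rintro ⟨y, hy, hyx⟩
      have : y = x := Subtype.ext hyx
      rw [← this]; exact hy
    · intro hx
      exact ⟨x, hx, rfl⟩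
  have hEP : E ≤ P := Subgroup.map_subtype_le _
  refine ⟨E, hEP, ?_, ?_, ?_, ?_⟩
  · rw [card_of_model hEP e (fun m => pE s m.1) hE, Fintype.card_subtype]
    exact pE_card s hs hs1
  · intro a ha
    have h1 := (hE ⟨a, hEP ha⟩).mp ha
    have h2 : e (⟨a, hEP ha⟩ * ⟨a, hEP ha⟩) = e 1 := by
      rw [map_mul, map_one]; exact mdl_sq_of_fst _ h1.2.1
    exact congrArg Subtype.val (e.injective h2)
  · have h1 := (hE ⟨c, sd.c_mem⟩).mpr (by rw [hcz]; exact pE_one s)
    exact h1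
  · have h1 := (hE ⟨u, hu⟩).mpr (pE_self s hs)
    exact h1

end Cfsg.Agent.Lib.Helper12.KS
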